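import Cfsg.Agent.H419.LeechIrr
import Cfsg.Agent.KFacts.MulCo.CoZero
import Cfsg.Agent.KFacts.MulSpor.NoDbl

/-!
# `Co1` row of S5703 and S5651 (helper779)

A perfect double cover of `Co1` has no subgroup of order `2 ^ 9` containing the central involution `z` with centre
`⟨z⟩` and commutators in `⟨z⟩`: the trace of the 24-dimensional representation would have norm `9 / 4`.
-/

set_option autoImplicit false

open Cfsg

namespace Cfsg.Agent.H779.CoRow

open Subgroup Cfsg.Agent.SporadicA.Co0Basic Cfsg.Agent.Co2Type.Mono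
open scoped commutatorElement

universe u

theorem neg_smul (v : leechLattice) : (negCo0 • v : leechLattice) = -v := negCo0_apply v

theorem tr8_neg_mul (g : Co0) : tr8 (negCo0 * g) = - tr8 g := by
  unfold tr8
  rw [← Finset.sum_neg_distrib]
  refine Finset.sum_congr rfl fun i _ => ?_
  rw [mul_smul, neg_smul]
  rfl

/-- Abstract part: a subgroup of `Co0`. -/
theorem no_subgroup {R : Type u} [Group R] [Finite R] (f : R →* Co0) {z : R} (hz1 : z ≠ 1) (hz : f z = negCo0)
    (hcard : Nat.card R = 2 ^ 9) (hcen : ∀ x : R, (∀ y, x * y = y * x) → x = 1 ∨ x = z)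
    (hcomm : ∀ x y : R, x * y = y * x ∨ x * y = z * (y * x)) : False := by
  classical
  have : Fintype R := Fintype.ofFinite R
  have hχ := Cfsg.Agent.H419.LeechIrr.isCharacter_lchi f
  obtain ⟨n, hn⟩ := Cfsg.Agent.Characters.Core.classInner_isNat hχ hχ
  have hval : ∀ x : R, Cfsg.Agent.H419.LeechIrr.lchi f x = (tr8 (f x) : ℂ) / 8 := fun x => rfl
  have h1 : tr8 (f 1) = 192 := by rw [map_one, Cfsg.Agent.SigZeroCo2.Lin.tr8_one]
  have h2 : tr8 (f z) = -192 := by
    have h3 := tr8_neg_mul (1 : Co0)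
    rw [mul_one, Cfsg.Agent.SigZeroCo2.Lin.tr8_one] at h3
    rw [hz, h3]
  have h3 : ∀ x : R, x ≠ 1 → x ≠ z → tr8 (f x) = 0 := by
    intro x hx1 hxz
    obtain ⟨y, hy⟩ : ∃ y, x * y ≠ y * x := by
      by_contra hcon
      push Not at hcon
      rcases hcen x hcon with h | h
      · exact hx1 h
      · exact hxz h
    have h4 : x * y = z * (y * x) := (hcomm x y).resolve_left hy
    have h5 : y⁻¹ * x * y = y⁻¹ * z * y * x := by
      rw [mul_assoc, h4]; group
    have h6 := tr8_conj (f y⁻¹) (f x)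
    rw [← map_mul, ← map_inv, ← map_mul, inv_inv, h5] at h6
    have h7 : f (y⁻¹ * z * y * x) = negCo0 * f x := by
      rw [map_mul, map_mul, map_mul, hz, map_inv]
      have h8 := Subgroup.mem_center_iff.1 negCo0_mem_center (f y)⁻¹
      rw [h8, inv_mul_cancel_right]
    rw [h7, tr8_neg_mul] at h6
    omega
  have hsum : ∑ g : R, Cfsg.Agent.H419.LeechIrr.lchi f g * (starRingEnd ℂ) (Cfsg.Agent.H419.LeechIrr.lchi f g) = 1152 := by
    rw [Fintype.sum_eq_add (1 : R) z hz1.symm (fun x hx => by rw [hval, h3 x hx.1 hx.2]; simp)]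
    rw [hval, hval, h1, h2]
    have h4 : (((192 : ℤ) : ℂ) / 8) = ((24 : ℝ) : ℂ) := by push_cast; norm_num
    have h5 : (((-192 : ℤ) : ℂ) / 8) = ((-24 : ℝ) : ℂ) := by push_cast; norm_num
    rw [h4, h5, Complex.conj_ofReal, Complex.conj_ofReal]
    push_cast
    norm_num
  rw [classInner, hsum, hcard] at hn
  have h9 : (9 : ℂ) = 4 * n := by
    rw [← hn]
    norm_num
  have h10 : (9 : ℕ) = 4 * n := by exact_mod_cast h9
  omega

/-- **The row `Co1`.** -/
theorem co1_row {P : Type u} [Group P] [Finite P] (hperf : commutator P = ⊤) (z : P) (hz : z ∈ Subgroup.center P)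
    (hz2 : orderOf z = 2) [(Subgroup.zpowers z).Normal] (hco : Spor.IsoCo1 (P ⧸ Subgroup.zpowers z)) (R : Subgroup P)
    (hzR : z ∈ R) (hcard : Nat.card R = 2 ^ 9) (hcen : ∀ x ∈ R, (∀ y ∈ R, x * y = y * x) → x ∈ Subgroup.zpowers z)
    (hcomm : ∀ x ∈ R, ∀ y ∈ R, ⁅x, y⁆ ∈ Subgroup.zpowers z) : False := by
  obtain ⟨e⟩ := hco
  let f : P →* Cfsg.Spor.Co1 := e.toMonoidHom.comp (QuotientGroup.mk' (Subgroup.zpowers z))
  have hf : Function.Surjective f := e.surjective.comp (QuotientGroup.mk'_surjective _)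
  have hker : f.ker = Subgroup.zpowers z := by
    ext x
    rw [MonoidHom.mem_ker]
    show e (QuotientGroup.mk x) = 1 ↔ _
    rw [map_eq_one_iff e e.injective, QuotientGroup.eq_one_iff]
  have hzp : ∀ x, x ∈ Subgroup.zpowers z → x = 1 ∨ x = z := by
    rintro _ ⟨k, rfl⟩
    rcases Int.even_or_odd' k with ⟨m, rfl | rfl⟩
    · left
      show z ^ (2 * m) = 1
      rw [zpow_mul]
      have : z ^ (2 : ℤ) = 1 := by
        rw [show (2 : ℤ) = ((2 : ℕ) : ℤ) by norm_num, zpow_natCast, ← hz2, pow_orderOf_eq_one]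
      rw [this, one_zpow]
    · right
      show z ^ (2 * m + 1) = z
      rw [zpow_add, zpow_mul]
      have : z ^ (2 : ℤ) = 1 := by
        rw [show (2 : ℤ) = ((2 : ℕ) : ℤ) by norm_num, zpow_natCast, ← hz2, pow_orderOf_eq_one]
      rw [this, one_zpow, one_mul, zpow_one]
  have hz1 : z ≠ 1 := by
    intro h
    rw [h, orderOf_one] at hz2
    omega
  obtain ⟨θ, hθ⟩ := Cfsg.Agent.KFacts.MulCo.CoZero.exists_equiv_co0 Cfsg.Agent.KFacts.MulSpor.NoDbl.M24 hperf hf
    (by
      rw [hker, Subgroup.zpowers_le]; exact hz)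
    (by
      rw [hker]
      refine IsPGroup.of_card (n := 1) ?_
      rw [Nat.card_zpowers, hz2, pow_one])
    (by
      rw [hker, Ne, Subgroup.zpowers_eq_bot]
      exact hz1)
  have hθz : θ z = negCo0 := by
    have h1 : θ z ∈ Subgroup.center Co0 := by
      rw [← QuotientGroup.eq_one_iff (N := Subgroup.center Co0)]
      have h2 := hθ z
      rw [QuotientGroup.mk'_apply] at h2
      rw [h2]
      have h3 : z ∈ f.ker := by rw [hker]; exact Subgroup.mem_zpowers z
      exact h3
    rcases eq_one_or_neg_of_mem_center h1 with h | h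
    · exact absurd ((map_eq_one_iff θ θ.injective).1 h) hz1
    · exact h
  refine no_subgroup (θ.toMonoidHom.comp R.subtype) (z := ⟨z, hzR⟩) (fun h => hz1 (congrArg Subtype.val h)) hθz hcard
    ?_ ?_
  · intro x hx
    rcases hzp _ (hcen x x.2 fun y hy => congrArg Subtype.val (hx ⟨y, hy⟩)) with h | h
    · exact Or.inl (Subtype.ext h)
    · exact Or.inr (Subtype.ext h)
  · intro x y
    rcases hzp _ (hcomm x x.2 y y.2) with h | h
    · left
      exact Subtype.ext (commutatorElement_eq_one_iff_mul_comm.1 h)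
    · right
      apply Subtype.ext
      show (x : P) * y = z * ((y : P) * x)
      rw [← h, commutatorElement_def]
      group

end Cfsg.Agent.H779.CoRow
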